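import Cfsg.Agent.Lib.Helper6.X32.Defs

/-!
# X32 project (S6002): package [QR5]
-/

set_option autoImplicit false
open Cfsg

namespace Cfsg.Agent.Lib.Helper19.X32

open Cfsg.Agent.Lib.Helper6.X32

universe u

theorem zmod5_sq : ∀ x : ZMod 5, x ^ 2 = 1 → ∃ r : ZMod 5, x = r * r := by decide

/-- [QR5] the golden ratio exists in the prime field when `p ≡ ±1 (mod 5)` -/
theorem pkgQR5 : PkgQR5.{u} := by
  intro F _ _ p hp hchar hcard hodd hord
  have : Fact (Nat.Prime 5) := ⟨by norm_num⟩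
  have hp2 : p ≠ 2 := by
    rintro rfl
    exact absurd hodd (by decide)
  have hsq5 : IsSquare ((p : ℕ) : ZMod 5) := by
    have hx : ((p : ℕ) : ZMod 5) ^ 2 = 1 := by
      rcases hord with h | h
      · rw [orderOf_eq_one_iff.mp h, one_pow]
      · rw [← h, pow_orderOf_eq_one]
    obtain ⟨r, hr⟩ := zmod5_sq _ hx
    exact ⟨r, hr⟩
  have hsq : IsSquare (((5 : ℕ) : ZMod p)) :=
    (ZMod.exists_sq_eq_prime_iff_of_mod_four_eq_one (p := 5) (q := p) (by norm_num) hp2).mp hsq5
  obtain ⟨s, hs⟩ := hsq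
  let φ : ZMod p →+* F := ZMod.castHom (dvd_refl p) F
  have hs' : φ s * φ s = 5 := by
    rw [← map_mul, ← hs, map_natCast]
    norm_num
  have h2 : (2 : F) ≠ 0 := by
    intro h
    have h' : ((2 : ℕ) : F) = 0 := by exact_mod_cast h
    rw [CharP.cast_eq_zero_iff F p] at h'
    have := Nat.le_of_dvd (by norm_num) h'
    have hp1 := hp.out.two_le
    omega
  refine ⟨(φ s - 1) / 2, ?_⟩
  field_simp
  linear_combination hs'

end Cfsg.Agent.Lib.Helper19.X32
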