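import Cfsg.Agent.Lib.Helper6.X32.Defs
import Cfsg.Agent.Lib.Helper94.Symp

/-!
# X32 project (S6002): packages [SPSCAL] and [TRSP]
-/

set_option autoImplicit false
open scoped MatrixGroups Matrix
open Cfsg

namespace Cfsg.Agent.Lib.Helper19.X32

open Cfsg.Agent.Lib.Helper6.X32
open Cfsg.Agent.Lib.Helper94

universe u

/-- the value of the symplectic form on a hyperbolic pair of the standard basis -/
theorem sf_inr_inl {F : Type u} [Field F] :
    Cfsg.sympForm 2 F (Pi.single (Sum.inr 0) 1) (Pi.single (Sum.inl 0) 1) = 1 := by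
  rw [sf_eq]
  simp [Fin.sum_univ_two]

/-- [SPSCAL] a scalar matrix of `Sp_4` is `±1` -/
theorem pkgSpScal : PkgSpScal.{u} := by
  intro F _ x hx z hz
  have h : Cfsg.sympForm 2 F ((x : M4 F) *ᵥ (Pi.single (Sum.inr 0) 1))
      ((x : M4 F) *ᵥ (Pi.single (Sum.inl 0) 1)) =
      Cfsg.sympForm 2 F (Pi.single (Sum.inr 0) 1) (Pi.single (Sum.inl 0) 1) :=
    (mem_spGL_iff 2 x).mp hx _ _
  rw [hz, Matrix.smul_mulVec, Matrix.smul_mulVec, Matrix.one_mulVec, Matrix.one_mulVec,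
    sf_smul_left, sf_smul_right, sf_inr_inl, mul_one] at h
  exact h

/-- the matrix form of membership in `Sp_4` -/
theorem spGL_transpose {F : Type u} [Field F] (x : GL4 F) (hx : x ∈ Cfsg.spGL 2 F) :
    (x : M4 F)ᵀ * (Matrix.J (Fin 2) F * (x : M4 F)) = Matrix.J (Fin 2) F := by
  ext i j
  have key : Cfsg.sympForm 2 F ((x : M4 F) *ᵥ (Pi.single i 1))
      ((x : M4 F) *ᵥ (Pi.single j 1)) =
      Cfsg.sympForm 2 F (Pi.single i 1) (Pi.single j 1) :=
    (mem_spGL_iff 2 x).mp hx _ _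
  unfold Cfsg.sympForm at key
  rw [Matrix.mulVec_mulVec, Matrix.mulVec_single_one, Matrix.mulVec_single_one,
    Matrix.mulVec_single_one, single_one_dotProduct] at key
  rw [Matrix.mul_apply]
  exact key

/-- [TRSP] an element of `Sp_4` and its inverse have the same trace -/
theorem pkgTrSp : PkgTrSp.{u} := by
  intro F _ x hx
  have hJ := spGL_transpose x hx
  have h1 : (-(Matrix.J (Fin 2) F * (x : M4 F)ᵀ * Matrix.J (Fin 2) F)) * (x : M4 F) = 1 := by
    rw [Matrix.neg_mul, Matrix.mul_assoc, Matrix.mul_assoc, hJ, Matrix.J_squared, neg_neg]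
  have hinv : ((x⁻¹ : GL4 F) : M4 F) =
      -(Matrix.J (Fin 2) F * (x : M4 F)ᵀ * Matrix.J (Fin 2) F) := by
    have h2 : (x : M4 F) * ((x⁻¹ : GL4 F) : M4 F) = 1 := by
      rw [← Units.val_mul, mul_inv_cancel, Units.val_one]
    calc ((x⁻¹ : GL4 F) : M4 F) = 1 * ((x⁻¹ : GL4 F) : M4 F) := (one_mul _).symm
      _ = (-(Matrix.J (Fin 2) F * (x : M4 F)ᵀ * Matrix.J (Fin 2) F)) * (x : M4 F) *
          ((x⁻¹ : GL4 F) : M4 F) := by rw [h1]
      _ = -(Matrix.J (Fin 2) F * (x : M4 F)ᵀ * Matrix.J (Fin 2) F) := by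
          rw [mul_assoc, h2, mul_one]
  rw [hinv, Matrix.trace_neg, Matrix.trace_mul_comm, ← Matrix.mul_assoc, Matrix.J_squared,
    Matrix.neg_mul, Matrix.one_mul, Matrix.trace_neg, neg_neg, Matrix.trace_transpose]

end Cfsg.Agent.Lib.Helper19.X32
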