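import Cfsg.Agent.Lib.Helper6.X32.Defs
import Cfsg.Agent.Lib.Helper94.Symp
import Cfsg.Agent.Lib.Helper19.X32.SpScal

/-!
# X32 project (S6002): package [TRVEX]
-/

set_option autoImplicit false
open scoped MatrixGroups Matrix
open Cfsg

namespace Cfsg.Agent.Lib.Helper19.X32

open Cfsg.Agent.Lib.Helper6.X32
open Cfsg.Agent.Lib.Helper94

universe u

/-- the vector `e = e_{inl 0}` -/
def eA (F : Type u) [Field F] : I4 → F := Pi.single (Sum.inl 0) 1

/-- the transvection `x ↦ x + f(x, e) e` -/
noncomputable def tA (F : Type u) [Field F] : GL4 F := sympTransGL 2 (eA F) 1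

theorem tA_mulVec {F : Type u} [Field F] (x : I4 → F) :
    ((tA F : GL4 F) : M4 F) *ᵥ x = x + Cfsg.sympForm 2 F x (eA F) • eA F := by
  unfold tA
  rw [sympTransGL_mulVec, one_mul]

theorem tA_pow_mulVec {F : Type u} [Field F] (n : ℕ) (x : I4 → F) :
    (((tA F) ^ n : GL4 F) : M4 F) *ᵥ x = x + ((n : F) * Cfsg.sympForm 2 F x (eA F)) • eA F := by
  induction n generalizing x with
  | zero => simp
  | succ n ih =>
    rw [pow_succ, Units.val_mul, ← Matrix.mulVec_mulVec, tA_mulVec, Matrix.mulVec_add,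
      Matrix.mulVec_smul, ih, ih, sf_self, mul_zero, zero_smul, add_zero, add_assoc,
      ← add_smul, Nat.cast_succ]
    congr 2
    ring

theorem gl4_ext {F : Type u} [Field F] (a b : GL4 F)
    (h : ∀ x : I4 → F, (a : M4 F) *ᵥ x = (b : M4 F) *ᵥ x) : a = b := by
  apply Units.ext
  ext i j
  have := congrFun (h (Pi.single j 1)) i
  rw [Matrix.mulVec_single_one, Matrix.mulVec_single_one] at this
  exact this

/-- [TRVEX] a transvection of order `p` in `Sp_4` -/
theorem pkgTrvEx : PkgTrvEx.{u} := by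
  intro F _ p hp hchar
  refine ⟨tA F, sympTransGL_mem 2 (eA F) 1, ?_, ?_, ?_⟩
  · apply gl4_ext
    intro x
    rw [tA_pow_mulVec, CharP.cast_eq_zero F p, zero_mul, zero_smul, add_zero, Units.val_one,
      Matrix.one_mulVec]
  · intro h
    have h1 := tA_mulVec (F := F) (Pi.single (Sum.inr 0) 1)
    have h2 : Cfsg.sympForm 2 F (Pi.single (Sum.inr 0) 1) (eA F) = 1 := sf_inr_inl
    rw [h, Units.val_one, Matrix.one_mulVec, h2, one_smul] at h1
    have h3 : eA F = 0 := by
      have := congrArg (fun v => v - (Pi.single (Sum.inr 0) 1 : I4 → F)) h1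
      simpa using this.symm
    have h4 := congrFun h3 (Sum.inl 0)
    simp [eA] at h4
  · have hmat : ((tA F : GL4 F) : M4 F) - 1 =
        Matrix.vecMulVec (eA F) (fun j => Cfsg.sympForm 2 F (Pi.single j 1) (eA F)) := by
      ext i j
      have h1 := congrFun (tA_mulVec (F := F) (Pi.single j 1)) i
      rw [Matrix.mulVec_single_one] at h1
      rw [Matrix.sub_apply, Matrix.vecMulVec_apply]
      have h1' : ((tA F : GL4 F) : M4 F) i j =
          (Pi.single j 1 : I4 → F) i + Cfsg.sympForm 2 F (Pi.single j 1) (eA F) * eA F i := h1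
      rw [h1', Matrix.one_apply, Pi.single_apply]
      by_cases hij : i = j
      · simp [hij]; ring
      · simp [hij]; ring
    rw [hmat]
    exact Matrix.rank_vecMulVec_le _ _

end Cfsg.Agent.Lib.Helper19.X32
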